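/-
Actions of odd order groups: fixed-point-free elements of prime order, Frobenius groups.
-/
import Cfsg.Agent.S3765
import Cfsg.Agent.OddChar.FrobFixed
import Cfsg.Agent.FGS3.FrattiniAction
import Cfsg.Agent.FGS3.PGroupFrattini
import Cfsg.Agent.Coprime.Generation
import Cfsg.Agent.Transfer.HHReduction
import Mathlib.GroupTheory.SemidirectProduct

set_option autoImplicit false
set_option linter.style.haveILetI false
set_option linter.unusedSectionVars false

namespace Cfsg.Agent.Core.BG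

open Cfsg
open Cfsg.Agent.OddChar (fixGroup restrictAct quotientAct map_eq_of_invariant)
open scoped commutatorElement

/-- Maps commuting with a commutative family that has a cyclic vector commute with each other. -/
theorem commute_of_cyclic_vector {V : Type*} [Group V] [IsMulCommutative V] {ι : Type*}
    (z : ι → V →* V) (hz : ∀ i j x, z i (z j x) = z j (z i x)) {c : V}
    (hc : Subgroup.closure (Set.range fun i => z i c) = ⊤) {f g : V →* V}
    (hf : ∀ i x, f (z i x) = z i (f x)) (hg : ∀ i x, g (z i x) = z i (g x)) (x : V) :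
    f (g x) = g (f x) := by
  open scoped IsMulCommutative in
  let T : Subgroup V :=
    { carrier := {y | ∃ e : V →* V, (∀ h : V →* V, (∀ i x, h (z i x) = z i (h x)) → ∀ x, e (h x) = h (e x)) ∧
        e c = y}
      one_mem' := ⟨1, fun h _ x => by simp, rfl⟩
      mul_mem' := fun {a b} ⟨e, he, hea⟩ ⟨d, hd, hdb⟩ => ⟨e * d, fun h hh x => by
        simp only [MonoidHom.mul_apply, he h hh, hd h hh, map_mul], by simp [hea, hdb]⟩
      inv_mem' := fun {a} ⟨e, he, hea⟩ => ⟨e⁻¹, fun h hh x => by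
        simp only [MonoidHom.inv_apply, he h hh, map_inv], by simp [hea]⟩ }
  have hT : ⊤ ≤ T := hc.ge.trans ((Subgroup.closure_le T).mpr (by
    rintro _ ⟨i, rfl⟩
    exact ⟨z i, fun h hh x => (hh i x).symm, rfl⟩))
  obtain ⟨e, he, hec⟩ := hT (Subgroup.mem_top (g c))
  have hez : ∀ i x, e (z i x) = z i (e x) := fun i x => he (z i) (fun j x => hz i j x) x
  have hge : g = e := by
    refine MonoidHom.eq_of_eqOn_top fun y _ => ?_
    have : ⊤ ≤ MonoidHom.eqLocus g e := hc.ge.trans ((Subgroup.closure_le _).mpr (by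
      rintro _ ⟨i, rfl⟩
      show g (z i c) = e (z i c)
      rw [hg, hez, hec]))
    exact this (Subgroup.mem_top y)
  rw [hge, ← he f hf x]

section Action

variable {L V : Type*} [Group L] [Finite L] [Group V] [Finite V] (φ : L →* MulAut V)

/-- The fixed-point formula when the kernel has no fixed points. -/
theorem card_eq_fix_pow (hV : Group.IsSolvable V) {U E : Subgroup L}
    (hEU : E ≤ Subgroup.normalizer (U : Set L)) (hUE : U ⊓ E = ⊥)
    (hfpf : ∀ e ∈ E, e ≠ 1 → U ⊓ Subgroup.centralizer ({e} : Set L) = ⊥)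
    (hcop : (Nat.card V).Coprime (Nat.card ↥(U ⊔ E))) (hU : fixGroup φ U = ⊥) :
    Nat.card V = Nat.card (fixGroup φ E) ^ Nat.card E := by
  classical
  set W := U ⊔ E
  haveI : Fintype W := Fintype.ofFinite _
  haveI : (U.subgroupOf W).Normal :=
    Subgroup.normal_subgroupOf_of_le_normalizer (sup_le Subgroup.le_normalizer hEU)
  have hfix : ∀ Y : Subgroup L, Y ≤ W → fixGroup (φ.comp W.subtype) (Y.subgroupOf W) = fixGroup φ Y := by
    intro Y hY
    ext v
    exact ⟨fun h y hy => h ⟨y, hY hy⟩ (Subgroup.mem_subgroupOf.mpr hy), fun h y hy => h y hy⟩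
  have hcard : Nat.card W = Nat.card (U.subgroupOf W) * Nat.card (E.subgroupOf W) := by
    rw [card_subgroupOf le_sup_left, card_subgroupOf le_sup_right]
    have := Coprime.card_sup hEU hUE
    exact this
  have key := OddChar.frob_fixed_formula_aux (U.subgroupOf W) (E.subgroupOf W) hcard
    (le_bot_iff.mp fun x hx => Subtype.ext (Subgroup.mem_bot.mp (hUE.le ⟨hx.1, hx.2⟩)))
    (fun e he he1 u hu h => Subtype.ext (Subgroup.mem_bot.mp ((hfpf e he fun h' => he1 (Subtype.ext h')).le
      ⟨hu, Subgroup.mem_centralizer_singleton_iff.mpr (congrArg Subtype.val h).symm⟩)))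
    (Nat.card V) V rfl hV hcop (φ.comp W.subtype)
  rw [hfix U le_sup_left, hfix E le_sup_right, card_subgroupOf le_sup_right, hU, Subgroup.card_bot,
    mul_one] at key
  have htop : fixGroup (φ.comp W.subtype) ⊤ = ⊥ := le_bot_iff.mp fun v hv =>
    hU.le fun u hu => hv ⟨u, (le_sup_left : U ≤ W) hu⟩ (Subgroup.mem_top _)
  rwa [htop, Subgroup.card_bot, one_pow, one_mul] at key

/-- An element of prime order without fixed points on an abelian `v`-group commutes in the image with an
odd `q`-group it normalizes. -/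
theorem commutator_le_ker_of_fpf [hVc : IsMulCommutative V] {v q r : ℕ} (hv : v.Prime) (hq : q.Prime)
    (hr : r.Prime) (hvq : v ≠ q) (hvr : v ≠ r) (hqr : q ≠ r) (hq2 : q ≠ 2) (hexp : ∀ x : V, x ^ v = 1)
    {X Q : Subgroup L} (hX : Nat.card X = r) (hQ : IsPGroup q Q) (hXQ : X ≤ Subgroup.normalizer (Q : Set L))
    (hfix : fixGroup φ X = ⊥) : ⁅Q, X⁆ ≤ φ.ker := by
  rw [← Subgroup.map_eq_bot_iff, Subgroup.map_commutator]
  by_cases hV : Subsingleton V
  · have h1 : ∀ a : MulAut V, a = 1 := fun a => MulEquiv.ext fun x => Subsingleton.elim _ _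
    exact le_bot_iff.mp fun a _ => Subgroup.mem_bot.mpr (h1 a)
  by_contra hne
  haveI : Finite (MulAut V) := Finite.of_injective (fun e : MulAut V => (e : V → V)) fun a b h => MulEquiv.ext (congrFun h)
  haveI : Finite (SemidirectProduct V (MulAut V) (MonoidHom.id _)) :=
    Finite.of_equiv _ SemidirectProduct.equivProd.symm
  set j : MulAut V →* SemidirectProduct V (MulAut V) (MonoidHom.id _) := SemidirectProduct.inr
  set i : V →* SemidirectProduct V (MulAut V) (MonoidHom.id _) := SemidirectProduct.inl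
  have hij : ∀ (g : MulAut V) (x : V), i (g x) = j g * i x * (j g)⁻¹ := fun g x => by
    rw [← map_inv]; exact SemidirectProduct.inl_aut (φ := MonoidHom.id (MulAut V)) g x
  have hconj : ∀ (H : Subgroup (MulAut V)),
      H.map j ≤ Subgroup.normalizer ((i.range : Subgroup (SemidirectProduct V (MulAut V) (MonoidHom.id _))) : Set (SemidirectProduct V (MulAut V) (MonoidHom.id _))) := by
    rintro H _ ⟨g, -, rfl⟩
    exact Coprime.mem_normalizer_of_conj_mem (by rintro _ ⟨x, rfl⟩; exact ⟨g x, hij g x⟩)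
  have hXr : Nat.card (X.map φ) = r := by
    refine ((Nat.dvd_prime hr).mp (hX ▸ Subgroup.card_map_dvd X φ)).resolve_left fun h => hne ?_
    rw [Subgroup.card_eq_one.mp h, Subgroup.commutator_bot_right]
  have hXC : (X.map φ).map j ⊓ Subgroup.centralizer (((Q.map φ).map j : Subgroup _) : Set _) = ⊥ := by
    by_contra h
    refine hne ?_
    rw [Subgroup.commutator_comm]
    refine Subgroup.commutator_eq_bot_iff_le_centralizer.mpr ?_
    have hc : Nat.card ↥((X.map φ).map j) = r := by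
      rw [Subgroup.card_map_of_injective SemidirectProduct.inr_injective, hXr]
    have heq : (X.map φ).map j ≤ Subgroup.centralizer (((Q.map φ).map j : Subgroup _) : Set _) := by
      refine inf_eq_left.mp (Subgroup.eq_of_le_of_card_ge inf_le_left ?_)
      have hd := Subgroup.card_dvd_of_le (inf_le_left : (X.map φ).map j ⊓
        Subgroup.centralizer (((Q.map φ).map j : Subgroup _) : Set _) ≤ (X.map φ).map j)
      rw [hc] at hd ⊢
      exact (((Nat.dvd_prime hr).mp hd).resolve_left fun e => h (Subgroup.card_eq_one.mp e)).ge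
    intro g hg
    refine Subgroup.mem_centralizer_iff.mpr fun y hy => ?_
    refine SemidirectProduct.inr_injective (φ := MonoidHom.id (MulAut V)) ?_
    show j (y * g) = j (g * y)
    rw [map_mul, map_mul]
    exact Subgroup.mem_centralizer_iff.mp (heq (Subgroup.mem_map_of_mem j hg)) (j y) (Subgroup.mem_map_of_mem j hy)
  refine S3765.result hv hq hr hvq hvr hqr ((X.map φ).map j) ((Q.map φ).map j) i.range
    (by rw [Subgroup.card_map_of_injective SemidirectProduct.inr_injective, hXr]) ((hQ.map φ).map j) ?_ hXC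
    ⟨⟨⟨?_⟩⟩, ?_⟩ ?_ (hconj _) (hconj _) ?_ (fun h => absurd h hq2) ?_
  · exact (Subgroup.map_mono ((Subgroup.map_mono hXQ).trans (Subgroup.le_normalizer_map φ))).trans
      (Subgroup.le_normalizer_map j)
  · rintro ⟨_, a, rfl⟩ ⟨_, b, rfl⟩
    exact Subtype.ext (show i a * i b = i b * i a by rw [← map_mul, ← map_mul, hVc.is_comm.comm])
  · rintro _ ⟨a, rfl⟩
    rw [← map_pow, hexp, map_one]
  · intro h
    exact hV ⟨fun a b => by
      have ha : i a = i b := by
        rw [Subgroup.mem_bot.mp (h ▸ ⟨a, rfl⟩ : i a ∈ (⊥ : Subgroup _)),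
          Subgroup.mem_bot.mp (h ▸ ⟨b, rfl⟩ : i b ∈ (⊥ : Subgroup _))]
      exact SemidirectProduct.inl_injective ha⟩
  · rw [← Subgroup.map_sup, Subgroup.eq_bot_iff_forall]
    rintro _ ⟨⟨g, hg, rfl⟩, hc⟩
    rw [show g = 1 from MulEquiv.ext fun x => ?_, map_one]
    refine SemidirectProduct.inl_injective (φ := MonoidHom.id (MulAut V)) ?_
    show i (g x) = i x
    rw [hij, ← Subgroup.mem_centralizer_iff.mp hc (i x) ⟨x, rfl⟩, mul_inv_cancel_right]
  · rw [Subgroup.eq_bot_iff_forall]
    rintro _ ⟨⟨x, rfl⟩, hc⟩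
    rw [Subgroup.mem_bot.mp (hfix.le (fun y hy => SemidirectProduct.inl_injective (φ := MonoidHom.id (MulAut V)) ?_) : x ∈ (⊥ : Subgroup V)),
      map_one]
    show i (φ y x) = i x
    rw [hij, Subgroup.mem_centralizer_iff.mp hc (j (φ y)) (Subgroup.mem_map_of_mem j (Subgroup.mem_map_of_mem φ hy)),
      mul_inv_cancel_right]

/-- If a Frobenius group acts with fixed points of prime order for the complement and none for the
kernel, the derived group of the kernel acts trivially. -/
theorem derived_le_ker_of_fixed_line [hVc : IsMulCommutative V] {K R : Subgroup L} (hK : Group.IsNilpotent K)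
    (hRK : R ≤ Subgroup.normalizer (K : Set L)) (hKR : K ⊓ R = ⊥)
    (hfpf : ∀ e ∈ R, e ≠ 1 → K ⊓ Subgroup.centralizer ({e} : Set L) = ⊥)
    (hcop : (Nat.card V).Coprime (Nat.card ↥(K ⊔ R))) (hfixK : fixGroup φ K = ⊥)
    (hline : (Nat.card (fixGroup φ R)).Prime) : ⁅K, K⁆ ≤ φ.ker := by
  classical
  have hVs : Group.IsSolvable V := by
    exact Group.isSolvable_of_comm hVc.is_comm.comm
  set Kb := K.map φ
  by_cases hKb : Kb = ⊥
  · exact (Subgroup.commutator_mono le_rfl le_rfl).trans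
      ((Subgroup.commutator_le.mpr fun a ha b hb => by
        rw [commutatorElement_def]
        exact mul_mem (mul_mem (mul_mem ha hb) (inv_mem ha)) (inv_mem hb)).trans ((Subgroup.map_eq_bot_iff K).mp hKb))
  set Z₀ := K ⊓ (Subgroup.centralizer (Kb : Set (MulAut V))).comap φ
  have hZK : Z₀ ≤ K := inf_le_left
  -- the preimage of the centre is normalized by `K` and `R`
  have hnorm : K ⊔ R ≤ Subgroup.normalizer (Z₀ : Set L) := by
    have hKK : K ⊔ R ≤ Subgroup.normalizer (K : Set L) := sup_le Subgroup.le_normalizer hRK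
    intro g hg
    refine Coprime.mem_normalizer_of_conj_mem fun y hy => ⟨(Subgroup.mem_normalizer_iff.mp (hKK hg) y).mp hy.1, ?_⟩
    refine Subgroup.mem_centralizer_iff.mpr ?_
    rintro _ ⟨k, hk, rfl⟩
    have h1 : g⁻¹ * k * g ∈ K := (Subgroup.mem_normalizer_iff.mp (hKK hg) _).mpr (by simpa [mul_assoc] using hk)
    have h2 := Subgroup.mem_centralizer_iff.mp hy.2 _ (Subgroup.mem_map_of_mem φ h1)
    calc φ k * φ (g * y * g⁻¹) = φ g * (φ (g⁻¹ * k * g) * φ y) * (φ g)⁻¹ := by simp only [map_mul, map_inv]; group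
      _ = φ (g * y * g⁻¹) * φ k := by rw [h2]; simp only [map_mul, map_inv]; group
  have hZne : ¬ Z₀.map φ ≤ ⊥ := by
    haveI : Group.IsNilpotent Kb := isNilpotent_map hK φ
    haveI : Nontrivial Kb := (Subgroup.nontrivial_iff_ne_bot Kb).mpr hKb
    haveI : Nontrivial (Subgroup.center Kb) :=
      (Subgroup.nontrivial_iff_ne_bot _).mpr (Group.IsNilpotent.center_ne_bot Kb)
    obtain ⟨⟨⟨_, k, hk, rfl⟩, hzc⟩, hz1⟩ := exists_ne (1 : Subgroup.center Kb)
    intro h
    refine hz1 (Subtype.ext (Subtype.ext (Subgroup.mem_bot.mp (h (Subgroup.mem_map_of_mem φ ⟨hk, ?_⟩)))))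
    exact Subgroup.mem_centralizer_iff.mpr fun y hy =>
      congrArg Subtype.val (Subgroup.mem_center_iff.mp hzc ⟨y, hy⟩)
  have hfpf₀ : ∀ e ∈ R, e ≠ 1 → Z₀ ⊓ Subgroup.centralizer ({e} : Set L) = ⊥ := fun e he he1 =>
    le_bot_iff.mp ((inf_le_inf_right _ hZK).trans (hfpf e he he1).le)
  have hZR : Z₀ ⊓ R = ⊥ := le_bot_iff.mp ((inf_le_inf_right _ hZK).trans hKR.le)
  -- an invariant subgroup without fixed points of `Z₀` or of `K` is trivial or everything
  have big : ∀ (W : Subgroup V) (U : Subgroup L), U ≤ K → R ≤ Subgroup.normalizer (U : Set L) →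
      (∀ x ∈ U ⊔ R, ∀ n ∈ W, φ x n ∈ W) → fixGroup φ U ⊓ W = ⊥ → W ≠ ⊥ → W = ⊤ := by
    intro W U hUK hRU hinv hU0 hW
    set Γ := U ⊔ R
    set ψ := restrictAct (φ.comp Γ.subtype) W (fun x n hn => hinv x x.2 n hn)
    have e1 := card_eq_fix_pow ψ (Group.isSolvable_of_isSolvable_injective W.subtype_injective)
      (U := U.subgroupOf Γ) (E := R.subgroupOf Γ)
      (fun x hx => Coprime.mem_normalizer_of_conj_mem fun y hy => Subgroup.mem_subgroupOf.mpr
        ((Subgroup.mem_normalizer_iff.mp (hRU (Subgroup.mem_subgroupOf.mp hx)) _).mp (Subgroup.mem_subgroupOf.mp hy)))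
      (le_bot_iff.mp fun x hx => Subtype.ext (Subgroup.mem_bot.mp (hKR.le ⟨hUK hx.1, hx.2⟩)))
      (fun e he he1 => le_bot_iff.mp fun x hx => Subtype.ext (Subgroup.mem_bot.mp
        ((hfpf e he fun h => he1 (Subtype.ext h)).le ⟨hUK hx.1, Subgroup.mem_centralizer_singleton_iff.mpr
          (congrArg Subtype.val (Subgroup.mem_centralizer_singleton_iff.mp hx.2))⟩)))
      ((hcop.coprime_dvd_left W.card_subgroup_dvd_card).coprime_dvd_right
        ((Subgroup.card_subgroup_dvd_card _).trans (Subgroup.card_dvd_of_le (sup_le_sup_right hUK R))))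
      (le_bot_iff.mp fun w hw => Subtype.ext (Subgroup.mem_bot.mp (hU0.le
        ⟨fun x hx => congrArg Subtype.val (hw ⟨x, (le_sup_left : U ≤ Γ) hx⟩ (Subgroup.mem_subgroupOf.mpr hx)), w.2⟩)))
    rw [card_subgroupOf (le_sup_right : R ≤ Γ)] at e1
    have e2 := card_eq_fix_pow φ hVs hRK hKR hfpf hcop hfixK
    have hle : Nat.card (fixGroup ψ (R.subgroupOf Γ)) ∣ Nat.card (fixGroup φ R) := by
      rw [← Subgroup.card_map_of_injective W.subtype_injective]
      refine Subgroup.card_dvd_of_le ?_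
      rintro _ ⟨w, hw, rfl⟩ x hx
      exact congrArg Subtype.val (hw ⟨x, (le_sup_right : R ≤ Γ) hx⟩ (Subgroup.mem_subgroupOf.mpr hx))
    refine Subgroup.eq_top_of_card_eq W ?_
    rcases (Nat.dvd_prime hline).mp hle with h | h
    · rw [h, one_pow] at e1
      exact absurd (Subgroup.card_eq_one.mp e1) hW
    · rw [e1, h, e2]
  -- `Z₀` has no fixed points
  have hfix0 : fixGroup φ Z₀ = ⊥ := by
    by_contra h
    have hW := big (fixGroup φ Z₀) K le_rfl hRK (fun x hx n hn z hz => by
      have h1 : x⁻¹ * z * x ∈ Z₀ :=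
        (Subgroup.mem_normalizer_iff.mp (hnorm hx) _).mpr (by simpa [mul_assoc] using hz)
      calc φ z (φ x n) = φ x (φ (x⁻¹ * z * x) n) := by
            simp only [← MulAut.mul_apply, ← map_mul]; congr 2; group
        _ = φ x n := by rw [hn _ h1])
      (le_bot_iff.mp ((inf_le_left).trans hfixK.le)) h
    refine hZne ?_
    rintro _ ⟨z, hz, rfl⟩
    exact Subgroup.mem_bot.mpr (MulEquiv.ext fun x => (hW.ge (Subgroup.mem_top x)) z hz)
  obtain ⟨⟨c, hc⟩, hc1⟩ : ∃ c : fixGroup φ R, c ≠ 1 := by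
    haveI : Nontrivial (fixGroup φ R) := Finite.one_lt_card_iff_nontrivial.mp hline.one_lt
    exact exists_ne 1
  set W := Subgroup.closure (Set.range fun z : Z₀ => φ z c)
  have hW : W = ⊤ := by
    refine big W Z₀ hZK (fun r hr => hnorm (Subgroup.mem_sup_right hr)) ?_
      (le_bot_iff.mp (inf_le_left.trans hfix0.le)) ?_
    · intro x hx n hn
      have hsub : Z₀ ⊔ R ≤ Subgroup.normalizer (Z₀ : Set L) :=
        sup_le Subgroup.le_normalizer fun r hr => hnorm (Subgroup.mem_sup_right hr)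
      obtain ⟨a, ha, r, hr, rfl⟩ := Coprime.exists_mul_of_mem_sup
        (fun r hr => hnorm (Subgroup.mem_sup_right hr)) hx
      suffices hmap : W.map (φ (a * r)).toMonoidHom ≤ W from hmap (Subgroup.mem_map_of_mem _ hn)
      rw [MonoidHom.map_closure, Subgroup.closure_le]
      rintro _ ⟨_, ⟨z, rfl⟩, rfl⟩
      refine Subgroup.subset_closure ⟨⟨a * (r * z * r⁻¹),
        mul_mem ha ((Subgroup.mem_normalizer_iff.mp (hsub (Subgroup.mem_sup_right hr)) _).mp z.2)⟩, ?_⟩
      show φ (a * (r * (z : L) * r⁻¹)) c = φ (a * r) (φ (z : L) c)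
      rw [show φ (a * (r * (z : L) * r⁻¹)) c = φ (a * r) (φ (z : L) (φ r⁻¹ c)) by
        simp only [← MulAut.mul_apply, ← map_mul]; congr 2; group]
      rw [hc _ (inv_mem hr)]
    · intro h
      refine hc1 (Subtype.ext (Subgroup.mem_bot.mp (h.le (Subgroup.subset_closure ⟨1, ?_⟩))))
      show φ ((1 : Z₀) : L) c = c
      simp
  rw [Subgroup.commutator_le]
  intro k hk k' hk'
  have hcomm : ∀ a ∈ K, ∀ (z : Z₀) (x : V), φ a (φ z x) = φ z (φ a x) := fun a ha z x => by
    rw [← MulAut.mul_apply, ← MulAut.mul_apply,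
      Subgroup.mem_centralizer_iff.mp z.2.2 (φ a) (Subgroup.mem_map_of_mem φ ha)]
  have key := commute_of_cyclic_vector (fun z : Z₀ => (φ z).toMonoidHom)
    (fun i j x => hcomm i (hZK i.2) j x) hW (f := (φ k).toMonoidHom) (g := (φ k').toMonoidHom)
    (fun i x => hcomm k hk i x) (fun i x => hcomm k' hk' i x)
  rw [MonoidHom.mem_ker, map_commutatorElement, commutatorElement_eq_one_iff_mul_comm]
  exact MulEquiv.ext fun x => key x

end Action

section Lift

variable {G : Type*} [Group G] [Finite G]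

/-- The action of a normalizing subgroup on the Frattini quotient. -/
noncomputable def frattiniAct (P W : Subgroup G) (hW : W ≤ Subgroup.normalizer (P : Set G)) :
    W →* MulAut (P ⧸ frattini P) :=
  quotientAct (P.normalizerMonoidHom.comp (Subgroup.inclusion hW)) (frattini P)
    fun _ => Subgroup.characteristic_iff_map_eq.mp frattini_characteristic _

theorem frattiniAct_mk (P W : Subgroup G) (hW : W ≤ Subgroup.normalizer (P : Set G)) (w : W) (x : P) :
    frattiniAct P W hW w (x : P ⧸ frattini P) =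
      ((P.normalizerMonoidHom (Subgroup.inclusion hW w) x : P) : P ⧸ frattini P) := rfl

/-- The fixed points on the Frattini quotient are images of fixed points. -/
theorem frattiniAct_fix {v : ℕ} [Fact v.Prime] {P W : Subgroup G} (hP : IsPGroup v P)
    (hW : W ≤ Subgroup.normalizer (P : Set G)) {X : Subgroup G} (hXW : X ≤ W)
    (hXs : Group.IsSolvable X) (hcop : (Nat.card X).Coprime (Nat.card P)) :
    fixGroup (frattiniAct P W hW) (X.subgroupOf W) ≤
      ((P ⊓ Subgroup.centralizer (X : Set G)).subgroupOf P).map (QuotientGroup.mk' (frattini P)) := by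
  intro q hq
  obtain ⟨x, rfl⟩ := QuotientGroup.mk_surjective q
  have hΦn : X ≤ Subgroup.normalizer (((frattini P).map P.subtype : Subgroup G) : Set G) :=
    (hXW.trans hW).trans (Transfer.HHRed.normalizer_map_char (frattini P))
  haveI := hXs
  have hfix : ∀ a ∈ X, ⁅(x : G), a⁆ ∈ (frattini P).map P.subtype := by
    intro a ha
    have h := hq ⟨a, hXW ha⟩ (Subgroup.mem_subgroupOf.mpr ha)
    rw [frattiniAct_mk, QuotientGroup.eq] at h
    refine ⟨_, (inferInstance : (frattini P).Normal).conj_mem _ h x, ?_⟩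
    simp only [map_mul, map_inv, commutatorElement_def]
    show (x : G) * ((a * (x : G) * a⁻¹)⁻¹ * x) * (x : G)⁻¹ = _
    group
  obtain ⟨m, hm, c, hc, hmc⟩ := Coprime.exists_mul_centralizer (hXW.trans hW) hcop
    (Subgroup.map_subtype_le (frattini P)) hΦn x.2 hfix
  obtain ⟨m', hm', rfl⟩ := hm
  refine ⟨⟨c, hc.1⟩, Subgroup.mem_subgroupOf.mpr hc, ?_⟩
  rw [QuotientGroup.mk'_apply]
  refine QuotientGroup.eq.mpr ?_
  have hcm : x = m' * ⟨c, hc.1⟩ := Subtype.ext hmc
  rw [hcm]
  simpa [mul_assoc] using (inferInstance : (frattini P).Normal).conj_mem m' hm' (⟨c, hc.1⟩ : P)⁻¹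

theorem frattiniAct_eq_one {v : ℕ} [Fact v.Prime] {P W : Subgroup G} (hP : IsPGroup v P)
    (hW : W ≤ Subgroup.normalizer (P : Set G)) {w : W} (hw : (orderOf w).Coprime v)
    (h : frattiniAct P W hW w = 1) : (w : G) ∈ Subgroup.centralizer (P : Set G) := by
  refine FGS3.mem_centralizer_of_frattini hP (hW w.2) (by rwa [Subgroup.orderOf_coe]) fun x hx => ?_
  have h1 := congrArg (fun a : MulAut (P ⧸ frattini P) => a ((⟨x, hx⟩ : P) : P ⧸ frattini P)) h
  simp only [MulAut.one_apply, frattiniAct_mk] at h1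
  refine ⟨⟨w * x * (w : G)⁻¹, (Subgroup.mem_normalizer_iff.mp (hW w.2) x).mp hx⟩ * ⟨x, hx⟩⁻¹, ?_, rfl⟩
  rw [QuotientGroup.eq] at h1
  have h2 := (frattini P).inv_mem h1
  rw [mul_inv_rev, inv_inv] at h2
  simp only [SetLike.mem_coe]
  exact (inferInstance : (frattini P).Normal).mem_comm h2

theorem isSolvable_of_prime_card {r : ℕ} (hr : r.Prime) {X : Subgroup G} (hX : Nat.card X = r) :
    Group.IsSolvable X :=
  haveI := Fact.mk hr
  Coprime.isSolvable_of_isPGroup (IsPGroup.of_card (n := 1) (by rw [hX, pow_one]))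

/-- **Theorem A**: an element of prime order without fixed points on a `v`-group modulo its Frattini
subgroup centralizes, modulo the centralizer, every odd `q`-group it normalizes. -/
theorem commutator_le_centralizer_of_fix_le_frattini {v q r : ℕ} [hv : Fact v.Prime] (hq : q.Prime) (hr : r.Prime)
    (hvq : v ≠ q) (hvr : v ≠ r) (hqr : q ≠ r) (hq2 : q ≠ 2) {X Q P : Subgroup G} (hX : Nat.card X = r)
    (hQ : IsPGroup q Q) (hP : IsPGroup v P) (hXQ : X ≤ Subgroup.normalizer (Q : Set G))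
    (hXP : X ≤ Subgroup.normalizer (P : Set G)) (hQP : Q ≤ Subgroup.normalizer (P : Set G))
    (hfix : P ⊓ Subgroup.centralizer (X : Set G) ≤ (frattini P).map P.subtype) : ⁅Q, X⁆ ≤ Subgroup.centralizer (P : Set G) := by
  haveI := Fact.mk hq
  set W := X ⊔ Q
  have hW : W ≤ Subgroup.normalizer (P : Set G) := sup_le hXP hQP
  haveI : IsMulCommutative (P ⧸ frattini P) := ⟨⟨FGS3.quotient_frattini_comm hP⟩⟩
  have hfix' : fixGroup (frattiniAct P W hW) (X.subgroupOf W) = ⊥ := by
    refine le_bot_iff.mp ((frattiniAct_fix hP hW le_sup_left (isSolvable_of_prime_card hr hX) ?_).trans ?_)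
    · obtain ⟨k, hk⟩ := IsPGroup.iff_card.mp hP
      rw [hX, hk]; exact ((Nat.coprime_primes hr hv.out).mpr hvr.symm).pow_right k
    · rintro _ ⟨a, ha, rfl⟩
      obtain ⟨b, hb, hbe⟩ := hfix (Subgroup.mem_subgroupOf.mp ha)
      refine Subgroup.mem_bot.mpr ((QuotientGroup.eq_one_iff a).mpr ?_)
      rwa [← show b = a from Subtype.ext hbe]
  have h := commutator_le_ker_of_fpf (frattiniAct P W hW) hv.out hq hr hvq hvr hqr hq2
    (fun x => FGS3.quotient_frattini_pow hP x) (X := X.subgroupOf W) (Q := Q.subgroupOf W)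
    (by rw [card_subgroupOf le_sup_left, hX]) hQ.comap_subtype
    (fun x hx => Coprime.mem_normalizer_of_conj_mem fun y hy => Subgroup.mem_subgroupOf.mpr
      ((Subgroup.mem_normalizer_iff.mp (hXQ (Subgroup.mem_subgroupOf.mp hx)) _).mp (Subgroup.mem_subgroupOf.mp hy)))
    hfix'
  intro x hx
  have hxQ : x ∈ Q := Coprime.commutator_le_of_le_normalizer hXQ hx
  have hxW : x ∈ W := Subgroup.mem_sup_right hxQ
  refine frattiniAct_eq_one hP hW (w := ⟨x, hxW⟩) ?_ (h ?_)
  · obtain ⟨k, hk⟩ := IsPGroup.iff_card.mp hQ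
    rw [Subgroup.orderOf_mk]
    exact Nat.Coprime.coprime_dvd_left (hk ▸ Subgroup.orderOf_dvd_natCard Q hxQ)
      (((Nat.coprime_primes hq hv.out).mpr hvq.symm).pow_left k)
  · have hmap : (⁅Q.subgroupOf W, X.subgroupOf W⁆).map W.subtype = ⁅Q, X⁆ := by
      rw [Subgroup.map_commutator, Subgroup.map_subgroupOf_eq_of_le le_sup_left,
        Subgroup.map_subgroupOf_eq_of_le le_sup_right]
    obtain ⟨y, hy, hyx⟩ := hmap.ge hx
    rwa [show (⟨x, hxW⟩ : W) = y from Subtype.ext hyx.symm]

theorem commutator_le_centralizer_of_fpf {v q r : ℕ} [hv : Fact v.Prime] (hq : q.Prime) (hr : r.Prime)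
    (hvq : v ≠ q) (hvr : v ≠ r) (hqr : q ≠ r) (hq2 : q ≠ 2) {X Q P : Subgroup G} (hX : Nat.card X = r)
    (hQ : IsPGroup q Q) (hP : IsPGroup v P) (hXQ : X ≤ Subgroup.normalizer (Q : Set G))
    (hXP : X ≤ Subgroup.normalizer (P : Set G)) (hQP : Q ≤ Subgroup.normalizer (P : Set G))
    (hfix : P ⊓ Subgroup.centralizer (X : Set G) = ⊥) : ⁅Q, X⁆ ≤ Subgroup.centralizer (P : Set G) :=
  commutator_le_centralizer_of_fix_le_frattini hq hr hvq hvr hqr hq2 hX hQ hP hXQ hXP hQP
    (hfix.le.trans bot_le)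

end Lift

end Cfsg.Agent.Core.BG
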